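import Cfsg.Agent.Lib.SchurCert.L34.Defs
import Cfsg.Agent.Lib.CoverL34.Check

/-!
# The kernel checks for `PSL(3,4)`
-/

set_option autoImplicit false

namespace Cfsg.Agent.Lib.SchurCert.L34.Check

open Cfsg.Agent.Lib.SchurCert.Elim Cfsg.Agent.Lib.SchurCert.L34.Data Cfsg.Agent.Lib.SchurCert.Bits
open Cfsg.Agent.Lib.SchurCert.L34.Defs

theorem var_0 : allB varC 12 0 = true := by decide +kernel
theorem var_1 : allB varC 12 4096 = true := by decide +kernel
theorem var_2 : allB varC 12 8192 = true := by decide +kernel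
theorem var_3 : allB varC 12 12288 = true := by decide +kernel
theorem var_4 : allB varC 12 16384 = true := by decide +kernel
theorem var_5 : allB varC 12 20480 = true := by decide +kernel
theorem var_6 : allB varC 12 24576 = true := by decide +kernel
theorem var_7 : allB varC 12 28672 = true := by decide +kernel
theorem var_8 : allB varC 12 32768 = true := by decide +kernel
theorem var_9 : allB varC 12 36864 = true := by decide +kernel

theorem var_spec (x : Nat) (hx : x < 2 * nV + 7) : varC x = true := by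
  have hn : 2 * nV + 7 = 40327 := rfl
  rw [hn] at hx
  refine allB_chunks (d := 12) (n := 40327) ?_ x hx
  intro i hi
  have h2 : (2 : Nat) ^ 12 = 4096 := rfl
  rw [h2] at hi ⊢
  have hi' : i < 10 := by omega
  interval_cases i
  · exact var_0
  · exact var_1
  · exact var_2
  · exact var_3
  · exact var_4
  · exact var_5
  · exact var_6
  · exact var_7
  · exact var_8
  · exact var_9

/-- The addition of codes. -/
def addC (a b : Nat) : Nat :=
  Nat.add (Nat.mod (Nat.add (Nat.mod a 4) (Nat.mod b 4)) 4)
    (Nat.mul 4 (Nat.mod (Nat.add (Nat.div a 4) (Nat.div b 4)) 4))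

/-- The checks on the edges at a vertex. -/
noncomputable def edgeC (v g : Nat) : Bool :=
  Nat.blt (nxF v g) nV && Nat.blt (rxF v g) nV &&
    Nat.beq (nxF (nxF (nxF v g) g) g) v &&
    Nat.beq (addC (kcF v g) (addC (kcF (nxF v g) g) (kcF (nxF (nxF v g) g) g))) 0 &&
    Nat.beq (rxF (nxF v g) 0) (nxF (rxF v 0) g) && Nat.beq (rxF (nxF v g) 1) (nxF (rxF v 1) g) &&
    Nat.beq (addC (kcF v g) (lcF (nxF v g) 0)) (addC (lcF v 0) (kcF (rxF v 0) g)) &&
    Nat.beq (addC (kcF v g) (lcF (nxF v g) 1)) (addC (lcF v 1) (kcF (rxF v 1) g))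

/-- The tree checks at a vertex. -/
noncomputable def treeC (v : Nat) : Bool :=
  Nat.beq v 0 ||
    (Nat.blt (parV parF v) v && Nat.beq (nxF (parV parF v) (pgV parF v)) v &&
      Nat.blt (parV rpF v) nV && Nat.beq (rxF (parV rpF v) (pgV rpF v)) v && Nat.blt (rrF (parV rpF v)) (rrF v))

/-- The checks at a vertex. -/
noncomputable def vertC (v : Nat) : Bool :=
  !(Nat.blt v nV) || (edgeC v 0 && edgeC v 1 && treeC v &&
    Nat.beq (nxF v 0) (Cfsg.Agent.Lib.CoverL34.Check.nxD v 0) &&
    Nat.beq (nxF v 1) (Cfsg.Agent.Lib.CoverL34.Check.nxD v 1) &&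
    Nat.beq (parF v) (Cfsg.Agent.Lib.CoverL34.Check.parD v))

theorem vert_0 : allB vertC 12 0 = true := by decide +kernel
theorem vert_1 : allB vertC 12 4096 = true := by decide +kernel
theorem vert_2 : allB vertC 12 8192 = true := by decide +kernel
theorem vert_3 : allB vertC 12 12288 = true := by decide +kernel
theorem vert_4 : allB vertC 12 16384 = true := by decide +kernel

theorem vert_spec (v : Nat) (hv : v < nV) : vertC v = true := by
  have hn : nV = 20160 := rfl
  rw [hn] at hv
  refine allB_chunks (d := 12) (n := 20160) ?_ v hv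
  intro i hi
  have h2 : (2 : Nat) ^ 12 = 4096 := rfl
  rw [h2] at hi ⊢
  have hi' : i < 5 := by omega
  interval_cases i
  · exact vert_0
  · exact vert_1
  · exact vert_2
  · exact vert_3
  · exact vert_4

end Cfsg.Agent.Lib.SchurCert.L34.Check
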