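import Cfsg.Agent.Lib.SchurCert.L34.Data
import Cfsg.Agent.Lib.SchurCert.Bits
import Cfsg.Agent.Lib.SchurCert.Cover

/-!
# The maps read off the tables
-/

set_option autoImplicit false

namespace Cfsg.Agent.Lib.SchurCert.L34.Defs

open Cfsg.Agent.Lib.SchurCert.Elim Cfsg.Agent.Lib.SchurCert.L34.Data Cfsg.Agent.Lib.SchurCert.Bits

/-- Number of vertices. -/
def nV : Nat := 20160

/-- Left multiplication by a generator. -/
noncomputable def nxF (v g : Nat) : Nat := Nat.land (edgeT (Nat.add (Nat.mul 2 v) g)) 32767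
/-- Right multiplication by a generator. -/
noncomputable def rxF (v g : Nat) : Nat := Nat.land (Nat.shiftRight (edgeT (Nat.add (Nat.mul 2 v) g)) 15) 32767
/-- The cocycle of left multiplication. -/
noncomputable def kcF (v g : Nat) : Nat := Nat.land (Nat.shiftRight (edgeT (Nat.add (Nat.mul 2 v) g)) 30) 15
/-- The cocycle of right multiplication. -/
noncomputable def lcF (v g : Nat) : Nat := Nat.land (Nat.shiftRight (edgeT (Nat.add (Nat.mul 2 v) g)) 34) 15
/-- The tree of left multiplications. -/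
noncomputable def parF (v : Nat) : Nat := Nat.land (vertT v) 65535
/-- The tree of right multiplications. -/
noncomputable def rpF (v : Nat) : Nat := Nat.land (Nat.shiftRight (vertT v) 16) 65535
/-- The ranks of right multiplications. -/
noncomputable def rrF (v : Nat) : Nat := Nat.shiftRight (vertT v) 32

/-- The relators. -/
def relF (j : Nat) : List Nat :=
  cond (Nat.beq j 0) [0, 0, 0] <|
  cond (Nat.beq j 1) [1, 1, 1] <|
  cond (Nat.beq j 2) [0, 1, 0, 1, 0, 1, 0, 1, 0, 1, 0, 1, 0, 1] <|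
  cond (Nat.beq j 3) [0, 1, 0, 1, 1, 0, 1, 0, 1, 1, 0, 1, 0, 1, 1] <|
  cond (Nat.beq j 4) [0, 1, 1, 0, 1, 1, 0, 1, 1, 0, 1, 1, 0, 1, 1, 0, 1, 1, 0, 1, 1] <|
  cond (Nat.beq j 5) [0, 0, 1, 0, 0, 1, 1, 0, 0, 1, 0, 0, 1, 1, 0, 0, 1, 0, 0, 1, 1] <|
  [0, 1, 0, 0, 1, 1, 0, 1, 0, 0, 1, 1, 0, 1, 0, 0, 1, 1, 0, 1, 0, 0, 1, 1]

/-- The check of a variable of the elimination. -/
noncomputable def varC (x : Nat) : Bool :=
  varOK nV 7 64 nxF parF datT relF 2 3 4 6 x

end Cfsg.Agent.Lib.SchurCert.L34.Defs
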