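import Cfsg.Agent.Lib.SchurCert.L34.Cert
import Cfsg.Agent.Lib.Schur.Pullback
import Cfsg.Agent.Lib.Classical.SLBasic

/-!
# The multiplier of `PSL(3,4)`
-/

set_option autoImplicit false

namespace Cfsg.Agent.Lib.SchurCert.L34.Group

open Cfsg Cfsg.Agent.Lib.SchurCert.Elim Cfsg.Agent.Lib.SchurCert.L34.Data Cfsg.Agent.Lib.SchurCert.Bits
open Cfsg.Agent.Lib.SchurCert.L34.Defs Cfsg.Agent.Lib.SchurCert.L34.Check Cfsg.Agent.Lib.SchurCert.L34.Cert
open Cfsg.Agent.Lib.SchurCert.Upper Cfsg.Agent.Lib.SchurCert.Cover Cfsg.Agent.Lib.Schur.Stem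
open Cfsg.Agent.Lib.CoverL34.PSL Cfsg.Agent.Lib.SLn.Basic
open Matrix Subgroup

/-- The linear algebra of the four parameters. -/
theorem final {K : Type*} [CommGroup K] (a b c d : K) (hE : ∀ x : K, x ^ 64 = 1)
    (r1 : a ^ 192 * b ^ 189 * c ^ 128 * d ^ 64 = a ^ 0 * b ^ 1 * c ^ 0 * d ^ 0)
    (r2 : a ^ 128 * b ^ 131 * c ^ 64 * d ^ 61 = a ^ 0 * b ^ 1 * c ^ 0 * d ^ 0)
    (r3 : a ^ 189 * b ^ 129 * c ^ 126 * d ^ 128 = a ^ 0 * b ^ 0 * c ^ 1 * d ^ 0)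
    (r4 : a ^ 76 * b ^ 256 * c ^ 64 * d ^ 1 = a ^ 0 * b ^ 0 * c ^ 0 * d ^ 1) :
    a ^ 4 = 1 ∧ b ^ 4 = 1 ∧ c = a ^ 3 * b ^ 3 ∧ d = b ^ 2 := by
  set R := (psi a b c d).ker with hR
  have m1 : ((192, 188, 128, 64) : ℤ × ℤ × ℤ × ℤ) ∈ R :=
    AddMonoidHom.mem_ker.mpr (by simpa using rel_mem a b c d r1)
  have m2 : ((128, 130, 64, 61) : ℤ × ℤ × ℤ × ℤ) ∈ R :=
    AddMonoidHom.mem_ker.mpr (by simpa using rel_mem a b c d r2)
  have m3 : ((189, 129, 125, 128) : ℤ × ℤ × ℤ × ℤ) ∈ R :=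
    AddMonoidHom.mem_ker.mpr (by simpa using rel_mem a b c d r3)
  have m4 : ((76, 256, 64, 0) : ℤ × ℤ × ℤ × ℤ) ∈ R :=
    AddMonoidHom.mem_ker.mpr (by simpa using rel_mem a b c d r4)
  have e1 : ((64, 0, 0, 0) : ℤ × ℤ × ℤ × ℤ) ∈ R := by
    rw [hR, mem_psi_ker]
    simp [zpow_ofNat, hE]
  have e2 : ((0, 64, 0, 0) : ℤ × ℤ × ℤ × ℤ) ∈ R := by
    rw [hR, mem_psi_ker]
    simp [zpow_ofNat, hE]
  have e3 : ((0, 0, 64, 0) : ℤ × ℤ × ℤ × ℤ) ∈ R := by
    rw [hR, mem_psi_ker]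
    simp [zpow_ofNat, hE]
  have e4 : ((0, 0, 0, 64) : ℤ × ℤ × ℤ × ℤ) ∈ R := by
    rw [hR, mem_psi_ker]
    simp [zpow_ofNat, hE]
  have comb : ∀ x1 x2 x3 x4 x5 x6 x7 x8 : ℤ,
      x1 • ((192, 188, 128, 64) : ℤ × ℤ × ℤ × ℤ) + x2 • ((128, 130, 64, 61) : ℤ × ℤ × ℤ × ℤ) +
        x3 • ((189, 129, 125, 128) : ℤ × ℤ × ℤ × ℤ) + x4 • ((76, 256, 64, 0) : ℤ × ℤ × ℤ × ℤ) +
        x5 • ((64, 0, 0, 0) : ℤ × ℤ × ℤ × ℤ) + x6 • ((0, 64, 0, 0) : ℤ × ℤ × ℤ × ℤ) +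
        x7 • ((0, 0, 64, 0) : ℤ × ℤ × ℤ × ℤ) + x8 • ((0, 0, 0, 64) : ℤ × ℤ × ℤ × ℤ) ∈ R := by
    intro x1 x2 x3 x4 x5 x6 x7 x8
    exact R.add_mem (R.add_mem (R.add_mem (R.add_mem (R.add_mem (R.add_mem (R.add_mem
      (R.zsmul_mem m1 _) (R.zsmul_mem m2 _)) (R.zsmul_mem m3 _)) (R.zsmul_mem m4 _))
      (R.zsmul_mem e1 _)) (R.zsmul_mem e2 _)) (R.zsmul_mem e3 _)) (R.zsmul_mem e4 _)
  have t1 : ((4, 0, 0, 0) : ℤ × ℤ × ℤ × ℤ) ∈ R := by
    have h := comb 0 0 0 (-21) 25 84 21 0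
    simpa using h
  have t2 : ((0, 4, 0, 0) : ℤ × ℤ × ℤ × ℤ) ∈ R := by
    have h := comb (-17) 0 0 (-32) 89 178 66 17
    simpa using h
  have t3 : ((-3, -3, 1, 0) : ℤ × ℤ × ℤ × ℤ) ∈ R := by
    have h := comb 6 0 21 21 (-105) (-144) (-74) (-48)
    simpa using h
  have t4 : ((0, -2, 0, 1) : ℤ × ℤ × ℤ × ℤ) ∈ R := by
    have h := comb (-21) 21 0 16 2 (-45) 5 1
    simpa using h
  rw [hR, mem_psi_ker] at t1 t2 t3 t4
  simp only [zpow_zero, pow_zero, pow_one, mul_one, one_mul, zpow_one, zpow_ofNat, _root_.zpow_neg] at t1 t2 t3 t4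
  refine ⟨t1, t2, ?_, ?_⟩
  · have h := eq_inv_of_mul_eq_one_right t3
    rw [h, _root_.mul_inv_rev, inv_inv, inv_inv, mul_comm]
  · exact (inv_mul_eq_one.mp t4).symm

theorem mon_eq {K : Type*} [CommGroup K] (a b : K) (A B C D : ℕ) :
    a ^ A * b ^ B * (a ^ 3 * b ^ 3) ^ C * (b ^ 2) ^ D = a ^ (A + 3 * C) * b ^ (B + 3 * C + 2 * D) := by
  rw [mul_pow, ← pow_mul, ← pow_mul, ← pow_mul, pow_add, pow_add, pow_add]
  simp only [mul_assoc, mul_left_comm, mul_comm]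

section PSL

variable {F : Type*} [Field F] [Fintype F] (hF : Fintype.card F = 4) {ω : F} (hω : ω ^ 2 + ω + 1 = 0)

include hF hω

/-- The order of the group. -/
theorem card_psl : Nat.card (ProjectiveSpecialLinearGroup (Fin 3) F) = 64 * 315 := by
  have h1 := Cfsg.Agent.Lib.Classical.SLBasic.card_gl_eq_gcd_mul_card_psl (F := F) (ι := Fin 3)
  have h2 : Nat.card (GL (Fin 3) F) = 181440 := by
    rw [Matrix.card_GL_field]
    simp [Fin.prod_univ_three, hF]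
  rw [h2, hF] at h1
  simp only [Fintype.card_fin] at h1
  norm_num at h1
  omega

omit hω in
theorem perfect_psl : commutator (ProjectiveSpecialLinearGroup (Fin 3) F) = ⊤ := by
  apply commutator_eq_top_of_surj (toPSL (n := 3) (F := F)) toPSL_surjective
  apply Cfsg.Agent.Lib.Classical.Transvections.commutator_sl_eq_top
  simp

/-- The generators. -/
noncomputable def gG (g : ℕ) : ProjectiveSpecialLinearGroup (Fin 3) F := toPSL (A hF hω g)

/-- The vertices. -/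
noncomputable def fF (v : ℕ) : ProjectiveSpecialLinearGroup (Fin 3) F := toPSL (Xs hF hω v)

theorem fF_zero : fF hF hω 0 = 1 := by
  unfold fF Xs
  rw [Cfsg.Agent.Lib.CoverL34.Lift.tT_zero, map_one]

omit hF hω in
theorem nx_eq {v g : ℕ} (hv : v < nV) (hg : g < 2) : nxF v g = Cfsg.Agent.Lib.CoverL34.Check.nxD v g := by
  obtain ⟨-, -, -, a, b, -⟩ := vert_unfold hv
  have hg' : g = 0 ∨ g = 1 := by omega
  rcases hg' with rfl | rfl
  · exact a
  · exact b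

theorem fF_edge (v g : ℕ) (hv : v < nV) (hg : g < 2) : fF hF hω (nxF v g) = gG hF hω g * fF hF hω v := by
  unfold fF gG
  rw [edge_rel hF hω hv hg, nx_eq hv hg]

theorem fF_inj (v : ℕ) (hv : v < nV) (h : fF hF hω v = 1) : v = 0 := Xs_eq_one hF hω hv h

theorem gG_gen : closure {gG hF hω 0, gG hF hω 1} = ⊤ := closure_gens hF hω

theorem gG_pow (g : ℕ) (hg : g < 2) : gG hF hω g ^ 3 = 1 := by
  have hg' : g = 0 ∨ g = 1 := by omega
  rcases hg' with rfl | rfl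
  · exact pow_three hF hω 0 (by decide) (by decide +kernel)
  · exact pow_three hF hω 1 (by decide) (by decide +kernel)

/-- **The kernels of exponent dividing 64.** -/
theorem two_part {Y : Type*} [Group Y] [Finite Y] (f : Y →* ProjectiveSpecialLinearGroup (Fin 3) F)
    (hf : Function.Surjective f) (hK : f.ker ≤ center Y) (hp : commutator Y = ⊤) (hM : ∀ x ∈ f.ker, x ^ 64 = 1) :
    ∃ c₁ ∈ f.ker, ∃ c₂ ∈ f.ker, c₁ ^ 4 = 1 ∧ c₂ ^ 4 = 1 ∧ ∀ x ∈ f.ker, ∃ s t : ℕ, x = c₁ ^ s * c₂ ^ t := by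
  obtain ⟨q, hq, hgen, hrel⟩ := bound elimCert (gG hF hω) (fF hF hω) (fF_zero hF hω) (fF_edge hF hω) (fF_inj hF hω)
    (gG_gen hF hω) (o₀ := 3) (o₁ := 3) rfl rfl (by norm_num) (by norm_num) (gG_pow hF hω 0 (by decide))
    (gG_pow hF hω 1 (by decide)) f hf hK hp hM
  letI : CommGroup f.ker := { (inferInstance : Group f.ker) with
    mul_comm := fun a b => Subtype.ext (mem_center_iff.mp (hK a.2) b.1).symm }
  have hE : ∀ x : f.ker, x ^ 64 = 1 := fun x => Subtype.ext (hM x.1 x.2)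
  have r1 := hrel 9678 3 (by decide) (by decide) (by decide +kernel)
  have r2 := hrel 10677 3 (by decide) (by decide) (by decide +kernel)
  have r3 := hrel 1801 4 (by decide) (by decide) (by decide +kernel)
  have r4 := hrel 1661 6 (by decide) (by decide) (by decide +kernel)
  have v1 : (wSum nxF (fun y => fld 0 (datT y)) (relF 3) 9678, wSum nxF (fun y => fld 1 (datT y)) (relF 3) 9678,
      wSum nxF (fun y => fld 2 (datT y)) (relF 3) 9678, wSum nxF (fun y => fld 3 (datT y)) (relF 3) 9678) =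
      (192, 189, 128, 64) := by decide +kernel
  have v2 : (wSum nxF (fun y => fld 0 (datT y)) (relF 3) 10677, wSum nxF (fun y => fld 1 (datT y)) (relF 3) 10677,
      wSum nxF (fun y => fld 2 (datT y)) (relF 3) 10677, wSum nxF (fun y => fld 3 (datT y)) (relF 3) 10677) =
      (128, 131, 64, 61) := by decide +kernel
  have v3 : (wSum nxF (fun y => fld 0 (datT y)) (relF 4) 1801, wSum nxF (fun y => fld 1 (datT y)) (relF 4) 1801,
      wSum nxF (fun y => fld 2 (datT y)) (relF 4) 1801, wSum nxF (fun y => fld 3 (datT y)) (relF 4) 1801) =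
      (189, 129, 126, 128) := by decide +kernel
  have v4 : (wSum nxF (fun y => fld 0 (datT y)) (relF 6) 1661, wSum nxF (fun y => fld 1 (datT y)) (relF 6) 1661,
      wSum nxF (fun y => fld 2 (datT y)) (relF 6) 1661, wSum nxF (fun y => fld 3 (datT y)) (relF 6) 1661) =
      (76, 256, 64, 1) := by decide +kernel
  have w1 : (fld 0 (datT (2 * nV + 3)), fld 1 (datT (2 * nV + 3)), fld 2 (datT (2 * nV + 3)), fld 3 (datT (2 * nV + 3))) =
      (0, 1, 0, 0) := by decide +kernel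
  have w3 : (fld 0 (datT (2 * nV + 4)), fld 1 (datT (2 * nV + 4)), fld 2 (datT (2 * nV + 4)), fld 3 (datT (2 * nV + 4))) =
      (0, 0, 1, 0) := by decide +kernel
  have w4 : (fld 0 (datT (2 * nV + 6)), fld 1 (datT (2 * nV + 6)), fld 2 (datT (2 * nV + 6)), fld 3 (datT (2 * nV + 6))) =
      (0, 0, 0, 1) := by decide +kernel
  simp only [Prod.mk.injEq] at v1 v2 v3 v4 w1 w3 w4
  obtain ⟨v11, v12, v13, v14⟩ := v1
  obtain ⟨v21, v22, v23, v24⟩ := v2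
  obtain ⟨v31, v32, v33, v34⟩ := v3
  obtain ⟨v41, v42, v43, v44⟩ := v4
  obtain ⟨w11, w12, w13, w14⟩ := w1
  obtain ⟨w31, w32, w33, w34⟩ := w3
  obtain ⟨w41, w42, w43, w44⟩ := w4
  rw [v11, v12, v13, v14, w11, w12, w13, w14] at r1
  rw [v21, v22, v23, v24, w11, w12, w13, w14] at r2
  rw [v31, v32, v33, v34, w31, w32, w33, w34] at r3
  rw [v41, v42, v43, v44, w41, w42, w43, w44] at r4
  let a : f.ker := ⟨q 0, hq 0⟩
  let b : f.ker := ⟨q 1, hq 1⟩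
  let c : f.ker := ⟨q 2, hq 2⟩
  let d : f.ker := ⟨q 3, hq 3⟩
  obtain ⟨h1, h2, h3, h4⟩ := final a b c d hE (Subtype.ext r1) (Subtype.ext r2) (Subtype.ext r3) (Subtype.ext r4)
  refine ⟨q 0, hq 0, q 1, hq 1, congrArg Subtype.val h1, congrArg Subtype.val h2, ?_⟩
  intro x hx
  obtain ⟨A', B', C', D', h5⟩ := hgen x hx
  refine ⟨A' + 3 * C', B' + 3 * C' + 2 * D', ?_⟩
  have h6 : (⟨x, hx⟩ : f.ker) = a ^ (A' + 3 * C') * b ^ (B' + 3 * C' + 2 * D') := by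
    have h7 : (⟨x, hx⟩ : f.ker) = a ^ A' * b ^ B' * c ^ C' * d ^ D' := Subtype.ext h5
    rw [h7, h3, h4]
    exact mon_eq a b A' B' C' D'
  exact congrArg Subtype.val h6

/-- The group data of the Cayley graph. -/
theorem groupData : GroupData coverCert (ProjectiveSpecialLinearGroup (Fin 3) F) (gG hF hω) (fF hF hω) :=
  ⟨fF_zero hF hω, fF_edge hF hω, gG_gen hF hω, fF_inj hF hω⟩

end PSL

theorem word2 : wEnd nxF (relF 2) 0 = 0 ∧ Cover.wAdd nxF addC 0 kcF (relF 2) 0 = 1 := by decide +kernel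
theorem word3 : wEnd nxF (relF 3) 0 = 0 ∧ Cover.wAdd nxF addC 0 kcF (relF 3) 0 = 4 := by decide +kernel

/-- All translations lie in the group. -/
theorem tau_all (c : A2) : tau nV c ∈ GG coverCert := by
  have h2 := tau_of_word coverCert (relF 2) (by decide) word2.1
  have h3 := tau_of_word coverCert (relF 3) (by decide) word3.1
  rw [word2.2] at h2
  rw [word3.2] at h3
  have key : ∀ c : A2, ∃ s t : Fin 4, c = decC 1 ^ s.val * decC 4 ^ t.val := by decide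
  obtain ⟨s, t, rfl⟩ := key c
  rw [tau_mul, tau_pow, tau_pow]
  exact (GG coverCert).mul_mem ((GG coverCert).pow_mem h2 _) ((GG coverCert).pow_mem h3 _)

theorem card_A2 : Nat.card A2 = 16 := by
  rw [Nat.card_eq_fintype_card]
  rfl

/-- **The central extension by `ℤ₄ × ℤ₄`.** -/
theorem cover2 {F : Type*} [Field F] [Fintype F] (hF : Fintype.card F = 4) {ω : F} (hω : ω ^ 2 + ω + 1 = 0) :
    IsStemExtension (sig (groupData hF hω)) ∧ Nonempty ((sig (groupData hF hω)).ker ≃* A2) := by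
  refine exists_stem coverCert (groupData hF hω) tau_all 3 (fun _ _ => dvd_rfl) ?_
  rw [card_A2]
  norm_num

end Cfsg.Agent.Lib.SchurCert.L34.Group
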